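import Mathlib
import Cfsg.Agent.Lib.Helper94.OMG.Defs
import Cfsg.Agent.Lib.Helper14.Eichler
import Cfsg.Agent.Lib.Helper14.Forms
import Cfsg.Agent.Lib.Helper44.Char2Forms
import Cfsg.Agent.Lib.Helper38.OPG.XL

/-!
# Project OMG (S2415), package [ROOTS]

With the Levi `SL_k` and the mixing element `u`, the subgroup `K` contains the Eichler elements
`E(e_i, w)` (`w` in the span of the `u`-orbit of `f_l`) and `E(f_i, w)` (`w` in the span of the
`u`-orbit of `e_l`), `i ≠ l`.
-/

set_option autoImplicit false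
open scoped Matrix MatrixGroups

namespace Cfsg.Agent.Lib.Helper72.OMG

open Cfsg.Agent.Lib.Helper31.Siegel Cfsg.Agent.Lib.Helper32.OPG Cfsg.Agent.Lib.Helper64.OParM
open Cfsg.Agent.Lib.Helper94.OMG
open Cfsg.Agent.Lib.Helper14 (minusQF minusQF_coe eichMat eichMat_mulVec eichMat_mul eichMat_conj
  eichMat_isometry eichElt eichMat_zero_right)

universe u

variable {k : ℕ} {F : Type u} [Field F] {a b : F}

theorem BM_eq72 (x y : MI k → F) :
    BM k a b x y = QuadraticMap.polar ⇑(minusQF k F a b) x y := by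
  rw [minusQF_coe]

theorem QM_eq72 (x : MI k → F) : QM k a b x = minusQF k F a b x := by
  rw [minusQF_coe]

/-- `IsEich` in matrix form. -/
theorem isEich_iff72 (u w : MI k → F) (σ : ↥(GM k F a b)) :
    IsEich a b u w σ ↔ matM σ = eichMat (minusQF k F a b) u w := by
  rw [Matrix.ext_iff_mulVec]
  unfold IsEich
  refine forall_congr' fun x => ?_
  rw [eichMat_mulVec, minusQF_coe]

/-- Existence of Eichler elements of the minus form. -/
theorem exists_eich72 [Fintype F] (hab : Aniso a b) (u w : MI k → F) (hu : QM k a b u = 0)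
    (huw : BM k a b u w = 0) :
    ∃ σ : ↥(GM k F a b), matM σ = eichMat (minusQF k F a b) u w := by
  have hQ := Cfsg.Agent.Lib.Helper44.minusQF_nondegenerate_all k F a b hab
  have hu' : (minusQF k F a b) u = 0 := by rw [minusQF_coe]; exact hu
  have huw' : QuadraticMap.polar ⇑(minusQF k F a b) u w = 0 := by rw [minusQF_coe]; exact huw
  refine ⟨⟨((eichElt (minusQF k F a b) hQ u w hu' huw' :
      ↥(Cfsg.isometryGroup F ⇑(minusQF k F a b))) : GL (MI k) F), ?_⟩, rfl⟩
  rw [Cfsg.Agent.Lib.Helper14.mem_isometryGroup_iff]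
  intro x
  have h := eichMat_isometry (minusQF k F a b) hu' huw' x
  rw [minusQF_coe] at h
  exact h

/-- The generic closure argument. -/
theorem roots_gen72 [Fintype F] (hab : Aniso a b) (K : Subgroup ↥(GM k F a b))
    (u : ↥(GM k F a b)) (hu : u ∈ K) (p q : MI k → F) (hp : QM k a b p = 0)
    (hfix : matM u *ᵥ p = p) (hpq : BM k a b p q = 0)
    (hτ : ∀ c : F, ∃ τ ∈ K, matM τ = eichMat (minusQF k F a b) p (c • q))
    (w : MI k → F)
    (hw : w ∈ Submodule.span F (Set.range fun j : ℕ => matM (u ^ j) *ᵥ q))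
    (σ : ↥(GM k F a b)) (hσ : IsEich a b p w σ) : σ ∈ K := by
  have hcoe : ⇑(minusQF k F a b) = Cfsg.quadFormMinus k F a b := minusQF_coe k F a b
  have hpQ : (minusQF k F a b) p = 0 := by rw [← QM_eq72]; exact hp
  have hfixj : ∀ j : ℕ, matM (u ^ j) *ᵥ p = p := by
    intro j
    induction j with
    | zero => rw [pow_zero, oneM_act]
    | succ j ih => rw [pow_succ, mulM_act, hfix, ih]
  have key : QuadraticMap.polar ⇑(minusQF k F a b) p w = 0 ∧
      ∀ (c : F) (σ : ↥(GM k F a b)), matM σ = eichMat (minusQF k F a b) p (c • w) → σ ∈ K := by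
    refine Submodule.span_induction (p := fun w _ =>
      QuadraticMap.polar ⇑(minusQF k F a b) p w = 0 ∧
      ∀ (c : F) (σ : ↥(GM k F a b)), matM σ = eichMat (minusQF k F a b) p (c • w) → σ ∈ K)
      ?_ ?_ ?_ ?_ hw
    · rintro _ ⟨j, rfl⟩
      have h0 : QuadraticMap.polar ⇑(minusQF k F a b) p (matM (u ^ j) *ᵥ q) = 0 := by
        have h1 := BM_act (u ^ j) p q
        rw [hfixj j] at h1
        rw [← BM_eq72, h1]
        exact hpq
      refine ⟨h0, fun c σ hσ => ?_⟩
      obtain ⟨τ, hτK, hτm⟩ := hτ c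
      have hS : ∀ y, (minusQF k F a b) (matM (u ^ j) *ᵥ y) = (minusQF k F a b) y := by
        intro y
        rw [hcoe]
        exact QM_act (u ^ j) y
      have hc := eichMat_conj (minusQF k F a b) (matM (u ^ j)) hS p (c • q)
      rw [hfixj j, Matrix.mulVec_smul] at hc
      have : σ = u ^ j * τ * (u ^ j)⁻¹ := by
        apply extM_act
        intro x
        rw [mulM_act, mulM_act, hτm, Matrix.mulVec_mulVec, hc, ← Matrix.mulVec_mulVec, actM_inv,
          hσ]
      rw [this]
      exact K.mul_mem (K.mul_mem (K.pow_mem hu j) hτK) (K.inv_mem (K.pow_mem hu j))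
    · refine ⟨QuadraticMap.polar_zero_right _ _, fun c σ hσ => ?_⟩
      rw [smul_zero, eichMat_zero_right] at hσ
      have : σ = 1 := by
        apply extM_act
        intro x
        rw [hσ, oneM_act, Matrix.one_mulVec]
      rw [this]
      exact K.one_mem
    · rintro w₁ w₂ _ _ ⟨h1, h1'⟩ ⟨h2, h2'⟩
      refine ⟨by rw [QuadraticMap.polar_add_right, h1, h2, add_zero], fun c σ hσ => ?_⟩
      have e1 : QuadraticMap.polar ⇑(minusQF k F a b) p (c • w₁) = 0 := by
        rw [QuadraticMap.polar_smul_right, h1, smul_zero]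
      have e2 : QuadraticMap.polar ⇑(minusQF k F a b) p (c • w₂) = 0 := by
        rw [QuadraticMap.polar_smul_right, h2, smul_zero]
      obtain ⟨σ₁, hσ₁⟩ := exists_eich72 hab p (c • w₁) hp (by rw [BM_eq72]; exact e1)
      obtain ⟨σ₂, hσ₂⟩ := exists_eich72 hab p (c • w₂) hp (by rw [BM_eq72]; exact e2)
      have : σ = σ₁ * σ₂ := by
        apply extM_act
        intro x
        rw [mulM_act, hσ, hσ₁, hσ₂, Matrix.mulVec_mulVec, eichMat_mul _ hpQ e1 e2, smul_add]
      rw [this]
      exact K.mul_mem (h1' c σ₁ hσ₁) (h2' c σ₂ hσ₂)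
    · rintro d w₁ _ ⟨h1, h1'⟩
      refine ⟨by rw [QuadraticMap.polar_smul_right, h1, smul_zero], fun c σ hσ => ?_⟩
      rw [smul_smul] at hσ
      exact h1' (c * d) σ hσ
  have hσ' := (isEich_iff72 p w σ).1 hσ
  exact key.2 1 σ (by rw [one_smul]; exact hσ')

/-- The Levi image of a transvection is a long root element `E(e_i, c f_l)`. -/
theorem lm_transv_e72 (i l : Fin k) (hil : i ≠ l) (c : F) :
    matM (Lm k F a b (Matrix.SpecialLinearGroup.transvection hil (-c))) =
      eichMat (minusQF k F a b) (eM i) (c • fM l) := by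
  rw [Matrix.ext_iff_mulVec]
  intro x
  have hX : mat (L k F (Matrix.SpecialLinearGroup.transvection hil (-c))) *ᵥ (x ∘ Sum.inl) =
      (x ∘ Sum.inl) + ((-c) * B (x ∘ Sum.inl) (Fv l)) • (E i : Vec k F)
        - ((-c) * B (x ∘ Sum.inl) (E i)) • (Fv l : Vec k F) :=
    Cfsg.Agent.Lib.Helper38.OPG.pkgXL k F i l hil (-c) (x ∘ Sum.inl)
  have hf : Cfsg.quadFormMinus k F a b (fM l) = 0 :=
    (Cfsg.Agent.Lib.Helper14.minus_isHypPair k F a b l).right
  rw [Lm_apply, matM_Em, hX, B_Fv, B_E, eichMat_mulVec, QuadraticMap.polar_smul_left,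
    QuadraticMap.map_smul, minusQF_coe, Cfsg.Agent.Lib.Helper14.minus_polar_inl,
    Cfsg.Agent.Lib.Helper14.minus_polar_inr, hf]
  funext t
  rcases t with (t | t) | t
  · simp [Pi.single_apply]
    split_ifs <;> ring
  · simp [Pi.single_apply]
    split_ifs <;> ring
  · simp

/-- The Levi image of a transvection is a long root element `E(f_i, c e_l)`. -/
theorem lm_transv_f72 (i l : Fin k) (hli : l ≠ i) (c : F) :
    matM (Lm k F a b (Matrix.SpecialLinearGroup.transvection hli c)) =
      eichMat (minusQF k F a b) (fM i) (c • eM l) := by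
  rw [Matrix.ext_iff_mulVec]
  intro x
  have hX : mat (L k F (Matrix.SpecialLinearGroup.transvection hli c)) *ᵥ (x ∘ Sum.inl) =
      (x ∘ Sum.inl) + (c * B (x ∘ Sum.inl) (Fv i)) • (E l : Vec k F)
        - (c * B (x ∘ Sum.inl) (E l)) • (Fv i : Vec k F) :=
    Cfsg.Agent.Lib.Helper38.OPG.pkgXL k F l i hli c (x ∘ Sum.inl)
  have he : Cfsg.quadFormMinus k F a b (eM l) = 0 :=
    (Cfsg.Agent.Lib.Helper14.minus_isHypPair k F a b l).left
  rw [Lm_apply, matM_Em, hX, B_Fv, B_E, eichMat_mulVec, QuadraticMap.polar_smul_left,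
    QuadraticMap.map_smul, minusQF_coe, Cfsg.Agent.Lib.Helper14.minus_polar_inl,
    Cfsg.Agent.Lib.Helper14.minus_polar_inr, he]
  funext t
  rcases t with (t | t) | t
  · simp [Pi.single_apply]
    split_ifs <;> ring
  · simp [Pi.single_apply]
  · simp

theorem pkgRoots : PkgRoots.{u} := by
  intro F _ _ k a b hab K hK u hu hfix l i hl hil w
  have hi : i.val + 1 < k := by
    have h1 : i.val ≠ l.val := fun h => hil (Fin.ext h)
    have h2 := i.isLt
    omega
  have hef : BM k a b (eM i) (fM l) = 0 := by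
    show QuadraticMap.polar (Cfsg.quadFormMinus k F a b) (eM i) (fM l) = 0
    rw [Cfsg.Agent.Lib.Helper14.minus_polar_inl]
    simp [hil]
  have hfe : BM k a b (fM i) (eM l) = 0 := by
    show QuadraticMap.polar (Cfsg.quadFormMinus k F a b) (fM i) (eM l) = 0
    rw [Cfsg.Agent.Lib.Helper14.minus_polar_inr]
    simp [hil]
  refine ⟨fun hw σ hσ => ?_, fun hw σ hσ => ?_⟩
  · exact roots_gen72 hab K u hu (eM i) (fM l)
      (Cfsg.Agent.Lib.Helper14.minus_isHypPair k F a b i).left (hfix i hi).1 hef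
      (fun c => ⟨_, hK _, lm_transv_e72 i l hil c⟩) w hw σ hσ
  · exact roots_gen72 hab K u hu (fM i) (eM l)
      (Cfsg.Agent.Lib.Helper14.minus_isHypPair k F a b i).right (hfix i hi).2 hfe
      (fun c => ⟨_, hK _, lm_transv_f72 i l (Ne.symm hil) c⟩) w hw σ hσ

end Cfsg.Agent.Lib.Helper72.OMG
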